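import Mathlib

set_option autoImplicit false

/-! # Piece [CH] of the Sp rows farm (helper94): characteristic abelian subgroups of an
extraspecial-like group of order `> 8` are cyclic. -/

namespace Cfsg.Agent.Lib.Helper11.SpRow

section CH

variable {R : Type*} [Group R]

theorem ch_nn {z : R} (hz2 : z * z = 1) (hzc : ∀ x : R, x * z = z * x) {x1 x2 y : R}
    (h1 : x1 * y = z * (y * x1)) (h2 : x2 * y = z * (y * x2)) :
    (x1 * x2) * y = y * (x1 * x2) := by
  calc x1 * x2 * y = x1 * (x2 * y) := mul_assoc _ _ _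
    _ = (x1 * z) * (y * x2) := by rw [h2, mul_assoc]
    _ = z * ((x1 * y) * x2) := by rw [hzc x1]; simp only [mul_assoc]
    _ = (z * z) * (y * (x1 * x2)) := by rw [h1]; simp only [mul_assoc]
    _ = y * (x1 * x2) := by rw [hz2, one_mul]

theorem ch_cn {z : R} (hzc : ∀ x : R, x * z = z * x) {x1 x2 y : R}
    (h1 : x1 * y = y * x1) (h2 : x2 * y = z * (y * x2)) :
    (x1 * x2) * y = z * (y * (x1 * x2)) := by
  calc x1 * x2 * y = x1 * (x2 * y) := mul_assoc _ _ _
    _ = (x1 * z) * (y * x2) := by rw [h2, mul_assoc]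
    _ = z * ((x1 * y) * x2) := by rw [hzc x1]; simp only [mul_assoc]
    _ = z * (y * (x1 * x2)) := by rw [h1]; simp only [mul_assoc]

theorem ch_nc {z : R} {x1 x2 y : R}
    (h1 : x1 * y = z * (y * x1)) (h2 : x2 * y = y * x2) :
    (x1 * x2) * y = z * (y * (x1 * x2)) := by
  calc x1 * x2 * y = x1 * (x2 * y) := mul_assoc _ _ _
    _ = (x1 * y) * x2 := by rw [h2, mul_assoc]
    _ = z * (y * (x1 * x2)) := by rw [h1]; simp only [mul_assoc]

theorem ch_cc {x1 x2 y : R} (h1 : x1 * y = y * x1) (h2 : x2 * y = y * x2) :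
    (x1 * x2) * y = y * (x1 * x2) := by
  rw [mul_assoc, h2, ← mul_assoc, h1, mul_assoc]

theorem ch_ne {z : R} (hz1 : z ≠ 1) {x y : R} (h : x * y = z * (y * x)) : x * y ≠ y * x := by
  intro h'
  rw [h'] at h
  apply hz1
  have : 1 * (y * x) = z * (y * x) := by rw [one_mul]; exact h
  exact (mul_right_cancel this).symm

open Classical in
theorem ch_aut [Finite R] {z : R} (hz1 : z ≠ 1) (hz2 : z * z = 1) (hzc : ∀ x : R, x * z = z * x)
    (hcomm : ∀ x y : R, x * y = y * x ∨ x * y = z * (y * x)) (y : R) (hy : y * y = z) :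
    ∃ α : R ≃* R, ∀ x, x * y ≠ y * x → α x = x * y := by
  have hn : ∀ x, x * y ≠ y * x → x * y = z * (y * x) := fun x hx => (hcomm x y).resolve_left hx
  let f : R →* R := MonoidHom.mk' (fun x => if x * y = y * x then x else x * y) (by
    intro x1 x2
    by_cases h1 : x1 * y = y * x1 <;> by_cases h2 : x2 * y = y * x2
    · rw [if_pos h1, if_pos h2, if_pos (ch_cc h1 h2)]
    · rw [if_pos h1, if_neg h2, if_neg (ch_ne hz1 (ch_cn hzc h1 (hn _ h2))), mul_assoc]
    · rw [if_neg h1, if_pos h2, if_neg (ch_ne hz1 (ch_nc (hn _ h1) h2)), mul_assoc, h2, mul_assoc]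
    · rw [if_neg h1, if_neg h2, if_pos (ch_nn hz2 hzc (hn _ h1) (hn _ h2))]
      have e : x1 * y * (x2 * y) = (z * z) * (x1 * x2) := by
        calc x1 * y * (x2 * y) = x1 * y * (z * (y * x2)) := by rw [hn _ h2]
          _ = x1 * ((y * z) * (y * x2)) := by simp only [mul_assoc]
          _ = (x1 * z) * ((y * y) * x2) := by rw [hzc y]; simp only [mul_assoc]
          _ = (x1 * z) * (z * x2) := by rw [hy]
          _ = (z * z) * (x1 * x2) := by
            rw [mul_assoc x1 z, ← mul_assoc z z, hz2, one_mul, one_mul]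
      rw [e, hz2, one_mul])
  have hf : ∀ x, f x = if x * y = y * x then x else x * y := fun x => rfl
  have hinj : Function.Injective f := by
    rw [injective_iff_map_eq_one]
    intro x hx
    rw [hf] at hx
    by_cases h : x * y = y * x
    · rwa [if_pos h] at hx
    · exfalso
      rw [if_neg h] at hx
      apply h
      have : x = y⁻¹ := eq_inv_of_mul_eq_one_left hx
      rw [this]; simp
  refine ⟨MulEquiv.ofBijective f ⟨hinj, Finite.surjective_of_injective hinj⟩, fun x hx => ?_⟩
  show f x = x * y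
  rw [hf, if_neg hx]

theorem ch_sq {z : R} (hz2 : z * z = 1) (hzc : ∀ x : R, x * z = z * x)
    (hcen : ∀ x : R, (∀ y, x * y = y * x) → x = 1 ∨ x = z)
    (hcomm : ∀ x y : R, x * y = y * x ∨ x * y = z * (y * x)) (x : R) : x * x = 1 ∨ x * x = z := by
  apply hcen
  intro y
  rcases hcomm x y with h | h
  · exact ch_cc h h
  · exact ch_nn hz2 hzc h h

/-- the key existence statement (E) -/
theorem ch_E [Finite R] {z : R} (hz1 : z ≠ 1) (hz2 : z * z = 1) (hzc : ∀ x : R, x * z = z * x)
    (hcen : ∀ x : R, (∀ y, x * y = y * x) → x = 1 ∨ x = z)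
    (hcomm : ∀ x y : R, x * y = y * x ∨ x * y = z * (y * x))
    (hcard : 8 < Nat.card R) (x w : R) (hxw : x * w ≠ w * x) :
    ∃ y, y * y = z ∧ x * y ≠ y * x := by
  classical
  by_contra hcon
  push Not at hcon
  have hsq1 : ∀ y, y * x ≠ x * y → y * y = 1 := by
    intro y hy
    rcases ch_sq hz2 hzc hcen hcomm y with h | h
    · exact h
    · exact absurd (hcon y h).symm hy
  have hn : ∀ a b : R, a * b ≠ b * a → a * b = z * (b * a) :=
    fun a b hab => (hcomm a b).resolve_left hab
  have hwx : w * x ≠ x * w := fun h => hxw h.symm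
  have hww : w * w = 1 := hsq1 w hwx
  -- inversion on `C`
  have hinv : ∀ c, c * x = x * c → w * c * w = c⁻¹ := by
    intro c hc
    have h1 : (w * c) * x ≠ x * (w * c) := ch_ne hz1 (ch_nc (hn _ _ hwx) hc)
    have h2 := hsq1 _ h1
    rw [eq_inv_iff_mul_eq_one]
    simpa only [mul_assoc] using h2
  have hCcomm : ∀ c d, c * x = x * c → d * x = x * d → c * d = d * c := by
    intro c d hc hd
    have h1 := hinv (c * d) (ch_cc hc hd)
    have h2 : w * (c * d) * w = (w * c * w) * (w * d * w) := by
      calc w * (c * d) * w = w * c * 1 * d * w := by simp only [mul_assoc, one_mul]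
        _ = w * c * (w * w) * d * w := by rw [hww]
        _ = (w * c * w) * (w * d * w) := by simp only [mul_assoc]
    rw [h2, hinv c hc, hinv d hd, _root_.mul_inv_rev] at h1
    have h3 : (c⁻¹ * d⁻¹)⁻¹ = (d⁻¹ * c⁻¹)⁻¹ := by rw [h1]
    simpa using h3.symm
  have hdec : ∀ r : R, r * x = x * r ∨ (w * r) * x = x * (w * r) := by
    intro r
    by_cases hr : r * x = x * r
    · exact Or.inl hr
    · exact Or.inr (ch_nn hz2 hzc (hn _ _ hwx) (hn _ _ hr))
  have hcentral : ∀ c, c * x = x * c → c * w = w * c → c = 1 ∨ c = z := by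
    intro c hc hcw
    apply hcen
    intro r
    rcases hdec r with hr | hr
    · exact hCcomm c r hc hr
    · have h1 := hCcomm c (w * r) hc hr
      have h2 : w * (c * r) = w * (r * c) := by
        calc w * (c * r) = (w * c) * r := (mul_assoc _ _ _).symm
          _ = c * (w * r) := by rw [← hcw, mul_assoc]
          _ = w * r * c := h1
          _ = w * (r * c) := mul_assoc _ _ _
      exact mul_left_cancel h2
  have hC4 : ∃ c0 : R, ∀ c, c * x = x * c → c = 1 ∨ c = z ∨ c = c0 ∨ c = c0 * z := by
    by_cases hex : ∃ c0, c0 * x = x * c0 ∧ c0 * w ≠ w * c0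
    · obtain ⟨c0, hc0, hc0w⟩ := hex
      refine ⟨c0, fun c hc => ?_⟩
      by_cases hcw : c * w = w * c
      · rcases hcentral c hc hcw with h | h
        · exact Or.inl h
        · exact Or.inr (Or.inl h)
      · have hc0i : c0⁻¹ * x = x * c0⁻¹ := by
          have := congrArg (fun t => c0⁻¹ * t * c0⁻¹) hc0
          simp only [mul_assoc, mul_inv_cancel, mul_one, inv_mul_cancel_left] at this
          exact this.symm
        have hc0iw : c0⁻¹ * w ≠ w * c0⁻¹ := by
          intro h
          apply hc0w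
          have := congrArg (fun t => c0 * t * c0) h
          simp only [mul_assoc, inv_mul_cancel, mul_one, mul_inv_cancel_left] at this
          exact this.symm
        have h1 := ch_nn hz2 hzc (hn _ _ hc0iw) (hn _ _ hcw)
        rcases hcentral (c0⁻¹ * c) (ch_cc hc0i hc) h1 with h | h
        · right; right; left
          exact (inv_mul_eq_one.1 h).symm
        · right; right; right
          exact (inv_mul_eq_iff_eq_mul.1 h)
    · push Not at hex
      refine ⟨1, fun c hc => ?_⟩
      rcases hcentral c hc (hex c hc) with h | h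
      · exact Or.inl h
      · exact Or.inr (Or.inl h)
  obtain ⟨c0, hc0⟩ := hC4
  have : Fintype R := Fintype.ofFinite R
  have hcover : (Finset.univ : Finset R) ⊆
      [1, z, c0, c0 * z, w * 1, w * z, w * c0, w * (c0 * z)].toFinset := by
    intro r _
    rw [List.mem_toFinset]
    rcases hdec r with hr | hr
    · rcases hc0 r hr with h | h | h | h <;> simp [h]
    · have hr' : r = w * (w * r) := by rw [← mul_assoc, hww, one_mul]
      rcases hc0 _ hr with h | h | h | h <;> rw [h] at hr' <;> rw [hr'] <;> simp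
  have h8 := (Finset.card_le_card hcover).trans (List.toFinset_card_le _)
  rw [Finset.card_univ, ← Nat.card_eq_fintype_card] at h8
  simp only [List.length_cons, List.length_nil] at h8
  omega

theorem isCyclic_of_characteristic_of_class_two {R : Type*} [Group R] [Finite R] (z : R)
    (hz2 : z * z = 1) (hzc : ∀ x : R, x * z = z * x)
    (hcen : ∀ x : R, (∀ y, x * y = y * x) → x = 1 ∨ x = z)
    (hcomm : ∀ x y : R, x * y = y * x ∨ x * y = z * (y * x))
    (hcard : 8 < Nat.card R)
    (A : Subgroup R) (hA : A.Characteristic) (hAc : ∀ x ∈ A, ∀ y ∈ A, x * y = y * x) :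
    IsCyclic A := by
  classical
  have hz1 : z ≠ 1 := by
    intro h
    have hall : ∀ x : R, x = 1 := by
      intro x
      have := hcen x (fun y => by
        rcases hcomm x y with h' | h'
        · exact h'
        · rw [h, one_mul] at h'; exact h')
      rcases this with h' | h'
      · exact h'
      · rw [h', h]
    have : Subsingleton R := ⟨fun a b => by rw [hall a, hall b]⟩
    have := Nat.card_of_subsingleton (1 : R)
    omega
  have hsub : ∀ x ∈ A, x = 1 ∨ x = z := by
    intro x hx
    by_contra hne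
    have hnc : ¬ ∀ y, x * y = y * x := fun h => hne (hcen x h)
    push Not at hnc
    obtain ⟨w, hw⟩ := hnc
    obtain ⟨y, hy, hxy⟩ := ch_E hz1 hz2 hzc hcen hcomm hcard x w hw
    obtain ⟨α, hα⟩ := ch_aut hz1 hz2 hzc hcomm y hy
    have h1 : α x ∈ A := by
      have := hA.fixed α
      have h2 : x ∈ A.comap α.toMonoidHom := by rw [this]; exact hx
      exact h2
    rw [hα x hxy] at h1
    have h3 := hAc x hx _ h1
    apply hxy
    rw [mul_assoc] at h3
    exact mul_left_cancel h3
  by_cases hzA : z ∈ A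
  · refine ⟨⟨⟨z, hzA⟩, fun a => ?_⟩⟩
    rcases hsub a.1 a.2 with h | h
    · exact ⟨0, by ext; simp [h]⟩
    · exact ⟨1, by ext; simp [h]⟩
  · refine ⟨⟨1, fun a => ?_⟩⟩
    rcases hsub a.1 a.2 with h | h
    · exact ⟨0, by ext; simp [h]⟩
    · exact absurd (h ▸ a.2) hzA

end CH

end Cfsg.Agent.Lib.Helper11.SpRow
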