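import Cfsg.Agent.Lib.Helper94.SpRow.Defs3
import Cfsg.Agent.Lib.Helper94.FormB

set_option autoImplicit false

/-! # Piece [FR] of the Sp rows farm (helper94): construction of the `2 ⊗ 2 ⊗ 2` frame -/

namespace Cfsg.Agent.Lib.Helper11.SpRow

open Cfsg Cfsg.Geo Matrix Module Cfsg.Agent.Lib.Helper94.SpRow Cfsg.Agent.Lib.Helper94
open Cfsg.Agent.Lib.Helper94.Tens
open scoped MatrixGroups

variable {F : Type*} [Field F]

/-- the coordinate change `F^(2×2×2) → F^(2×4)` attached to `W` -/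
noncomputable def frPsi (W : (Fin 2 × Fin 2 → F) ≃ₗ[F] (Fin 4 → F)) :
    (I3 → F) ≃ₗ[F] (Fin 2 × Fin 4 → F) :=
  ((LinearEquiv.curry F F (Fin 2) (Fin 2 × Fin 2)).trans
    (LinearEquiv.piCongrRight (fun _ : Fin 2 => W))).trans
    (LinearEquiv.curry F F (Fin 2) (Fin 4)).symm

theorem frPsi_apply (W : (Fin 2 × Fin 2 → F) ≃ₗ[F] (Fin 4 → F)) (x : I3 → F) (p : Fin 2 × Fin 4) :
    frPsi W x p = W (fun q => x (p.1, q)) p.2 := rfl

theorem frPsi_eq_sum (W : (Fin 2 × Fin 2 → F) ≃ₗ[F] (Fin 4 → F)) (x : I3 → F) :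
    frPsi W x = pc (Pi.single 0 1) (W (fun q => x (0, q))) + pc (Pi.single 1 1) (W (fun q => x (1, q))) := by
  funext p
  obtain ⟨i, k⟩ := p
  rw [frPsi_apply]
  fin_cases i <;> simp [pc]

theorem exists_frame (e : (Fin 4 ⊕ Fin 4) ≃ Fin 2 × Fin 4) (P : GL (Fin 4 ⊕ Fin 4) F)
    (f₁ : (Fin 2 → F) → (Fin 2 → F) → F) (f₂ : (Fin 4 → F) → (Fin 4 → F) → F)
    (h1 : IsSymplecticForm f₁) (hs2 : IsSymmetricForm f₂)
    (hs : IsTensorFormStructure id (sympForm 4 F) f₁ f₂ e P)
    (w : Module.Basis (Fin 2 × Fin 2) F (Fin 4 → F))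
    (hw : ∀ p p', f₂ (w p) (w p') = om F p.1 p'.1 * om F p.2 p'.2) :
    Nonempty (Fr e P f₂) := by
  obtain ⟨c, hc, hform⟩ := form_pt (sympForm 4 F) f₁ f₂ h1.bilinear hs2.bilinear e P hs
  have hb1 := h1.bilinear
  have hb2 := hs2.bilinear
  set lam := f₁ (Pi.single 0 1) (Pi.single 1 1) with hlam
  have hlam0 : lam ≠ 0 := by
    intro h0
    have hne : (Pi.single 0 1 : Fin 2 → F) ≠ 0 := by
      intro h
      have := congrFun h 0
      simp at this
    obtain ⟨x, hx⟩ := (h1.nondegenerate _ hne).2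
    apply hx
    have hxd : x = x 0 • (Pi.single 0 1 : Fin 2 → F) + x 1 • (Pi.single 1 1 : Fin 2 → F) := by
      funext i
      fin_cases i <;> simp
    rw [hxd, hb1.add_right, hb1.smul_right, hb1.smul_right, h1.alternating, ← hlam, h0]
    simp
  have hf1 : ∀ i i' : Fin 2, f₁ (Pi.single i 1) (Pi.single i' 1) = lam * om F i i' := by
    intro i i'
    fin_cases i <;> fin_cases i'
    · simp [h1.alternating]
    · simp [hlam]
    · simp only [Fin.mk_one, Fin.zero_eta, om_10]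
      rw [h1.skew, ← hlam]; ring
    · simp [h1.alternating]
  let W : (Fin 2 × Fin 2 → F) ≃ₗ[F] (Fin 4 → F) := w.equivFun.symm
  have hW : ∀ z, W z = ∑ q, z q • w q := fun z => w.equivFun_symm_apply z
  have hf2 : ∀ z z', f₂ (W z) (W z') =
      ∑ q, ∑ q', z q * z' q' * (om F q.1 q'.1 * om F q.2 q'.2) := by
    intro z z'
    rw [← formB_apply f₂ hb2, hW, hW]
    simp only [map_sum, LinearMap.sum_apply, map_smul, LinearMap.smul_apply, formB_apply, hw,
      smul_eq_mul]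
    rw [Finset.sum_comm]
    apply Finset.sum_congr rfl
    intro q _
    rw [Finset.mul_sum]
    apply Finset.sum_congr rfl
    intro q' _
    ring
  let Φ : (I3 → F) ≃ₗ[F] (Fin 4 ⊕ Fin 4 → F) := (frPsi W).trans (TT e P)
  have hΦ : ∀ x, Φ x = pt e P (Pi.single 0 1) (W (fun q => x (0, q)))
      + pt e P (Pi.single 1 1) (W (fun q => x (1, q))) := by
    intro x
    show TT e P (frPsi W x) = _
    rw [frPsi_eq_sum, map_add]
    rfl
  refine ⟨{ Φ := Φ, W := W, κ := c * lam, hκ := mul_ne_zero hc hlam0, form := ?_, pure := ?_,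
            quad := ?_ }⟩
  · intro x y
    rw [hΦ, hΦ, sf_add_left, sf_add_right, sf_add_right, hform, hform, hform, hform, hf1, hf1, hf1, hf1,
      hf2, hf2, hf2, hf2]
    simp only [g3, Fintype.sum_prod_type, Fin.sum_univ_two, om_00, om_01, om_10, om_11]
    ring
  · intro a y
    show TT e P (frPsi W (fun p => a p.1 * y p.2)) = TT e P (pc a (W y))
    congr 1
    funext p
    rw [frPsi_apply]
    have : (fun q : Fin 2 × Fin 2 => a p.1 * y q) = a p.1 • y := by
      funext q; rfl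
    show W (fun q : Fin 2 × Fin 2 => a p.1 * y q) p.2 = a p.1 * W y p.2
    rw [this, map_smul]
    rfl
  · intro y
    rw [hf2]
    simp only [Fintype.sum_prod_type, Fin.sum_univ_two, om_00, om_01, om_10, om_11]
    ring

end Cfsg.Agent.Lib.Helper11.SpRow
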