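import Cfsg.Agent.Lib.Helper94.SpRow.Defs3
import Cfsg.Agent.Lib.Helper94.FormB

set_option autoImplicit false

/-! # Piece [HB] of the Sp rows farm (helper94): hyperbolic basis of a plus type form on `F^4` -/

namespace Cfsg.Agent.Lib.Helper11.SpRow

open Cfsg Cfsg.Geo Matrix Module Cfsg.Agent.Lib.Helper94.SpRow Cfsg.Agent.Lib.Helper94
open scoped MatrixGroups

variable {F : Type*} [Field F]

/-- abstract hyperbolic quadruple -/
theorem hb_quad {V : Type*} [AddCommGroup V] [Module F V] (h2 : (2 : F) ≠ 0)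
    (B : LinearMap.BilinForm F V) (hsym : ∀ x y, B x y = B y x)
    (hnd : ∀ v, v ≠ 0 → ∃ x, B v x ≠ 0)
    (u1 u0 : V) (h11 : B u1 u1 = 0) (h10 : B u1 u0 = 0) (h00 : B u0 u0 = 0)
    (hu1 : u1 ≠ 0) (hind : ∀ c : F, u0 - c • u1 ≠ 0) :
    ∃ u2 x1 x2 : V, B u1 u2 = 0 ∧ B u2 u2 = 0 ∧ B u1 x1 = 1 ∧ B u1 x2 = 0 ∧ B u2 x1 = 0 ∧
      B u2 x2 = 1 ∧ B x1 x1 = 0 ∧ B x1 x2 = 0 ∧ B x2 x2 = 0 := by
  obtain ⟨y0, hy0⟩ := hnd u1 hu1
  obtain ⟨y1, hy1⟩ : ∃ y1, B u1 y1 = 1 :=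
    ⟨(B u1 y0)⁻¹ • y0, by rw [map_smul, smul_eq_mul, inv_mul_cancel₀ hy0]⟩
  set u2 := u0 - (B u0 y1) • u1 with hu2
  have hu2ne : u2 ≠ 0 := hind _
  have h01 : B u0 u1 = 0 := by rw [hsym, h10]
  have a1 : B u1 u2 = 0 := by
    rw [hu2, map_sub, map_smul, h10, h11]; simp
  have a1' : B u2 u1 = 0 := by rw [hsym, a1]
  have a2 : B u2 u2 = 0 := by
    have : B u2 u2 = B u2 u0 - (B u0 y1) * B u2 u1 := by
      conv_lhs => rw [hu2]
      rw [map_sub, map_smul, smul_eq_mul, ← hu2]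
    rw [this, a1', hu2, map_sub, map_smul, LinearMap.sub_apply, LinearMap.smul_apply, h00, h10]
    simp
  have a3 : B u2 y1 = 0 := by
    rw [hu2, map_sub, map_smul, LinearMap.sub_apply, LinearMap.smul_apply, hy1]; simp
  obtain ⟨z0, hz0⟩ := hnd u2 hu2ne
  obtain ⟨y2, hy2⟩ : ∃ y2, B u2 y2 = 1 :=
    ⟨(B u2 z0)⁻¹ • z0, by rw [map_smul, smul_eq_mul, inv_mul_cancel₀ hz0]⟩
  -- dual vectors
  set t2 := y2 - (B u1 y2) • y1 with ht2
  have b1 : B u1 t2 = 0 := by rw [ht2, map_sub, map_smul, hy1]; simp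
  have b2 : B u2 t2 = 1 := by rw [ht2, map_sub, map_smul, hy2, a3]; simp
  -- (`y1`, `t2`) is dual to (`u1`, `u2`); now correct
  have c1 : B y1 u1 = 1 := by rw [hsym, hy1]
  have c2 : B y1 u2 = 0 := by rw [hsym, a3]
  have c3 : B t2 u1 = 0 := by rw [hsym, b1]
  have c4 : B t2 u2 = 1 := by rw [hsym, b2]
  have c5 : B t2 y1 = B y1 t2 := hsym _ _
  refine ⟨u2, y1 - (B y1 y1 / 2) • u1 - (B y1 t2 / 2) • u2,
    t2 - (B y1 t2 / 2) • u1 - (B t2 t2 / 2) • u2, a1, a2, ?_, ?_, ?_, ?_, ?_, ?_, ?_⟩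
  · simp only [map_sub, map_smul, smul_eq_mul, hy1, h11, a1]; ring
  · simp only [map_sub, map_smul, smul_eq_mul, b1, h11, a1]; ring
  · simp only [map_sub, map_smul, smul_eq_mul, a3, a1', a2]; ring
  · simp only [map_sub, map_smul, smul_eq_mul, b2, a1', a2]; ring
  · simp only [map_sub, map_smul, smul_eq_mul, LinearMap.sub_apply, LinearMap.smul_apply, hy1, h11, a1,
      a1', a2, a3, c1, c2]
    field_simp
    ring
  · simp only [map_sub, map_smul, smul_eq_mul, LinearMap.sub_apply, LinearMap.smul_apply, hy1, h11, a1,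
      a1', a2, a3, b1, b2, c1, c2, c3, c4]
    field_simp
    ring
  · simp only [map_sub, map_smul, smul_eq_mul, LinearMap.sub_apply, LinearMap.smul_apply, h11, a1,
      a1', a2, b1, b2, c3, c4]
    field_simp
    ring

theorem plus_basis (h2 : (2 : F) ≠ 0) (f₂ : (Fin 4 → F) → (Fin 4 → F) → F)
    (hs2 : IsSymmetricForm f₂) (hplus : IsPlusTypeOn (fun v : Fin 4 → F => f₂ v v) ⊤) :
    ∃ w : Module.Basis (Fin 2 × Fin 2) F (Fin 4 → F),
      ∀ p p', f₂ (w p) (w p') = om F p.1 p'.1 * om F p.2 p'.2 := by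
  obtain ⟨U, -, hU, hdim⟩ := hplus
  rw [finrank_top, Module.finrank_fin_fun] at hdim
  have hdim2 : finrank F U = 2 := by omega
  have hb := hs2.bilinear
  have hpol : ∀ u ∈ U, ∀ u' ∈ U, f₂ u u' = 0 := by
    intro u hu u' hu'
    have e : f₂ (u + u') (u + u') = 0 := hU _ (U.add_mem hu hu')
    have e1 : f₂ u u = 0 := hU _ hu
    have e2 : f₂ u' u' = 0 := hU _ hu'
    rw [hb.add_left, hb.add_right, hb.add_right, e1, e2, hs2.symm u' u] at e
    have e3 : 2 * f₂ u u' = 0 := by linear_combination e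
    exact (mul_eq_zero.1 e3).resolve_left h2
  let b := Module.finBasisOfFinrankEq F U hdim2
  have hu1 : ((b 0 : U) : Fin 4 → F) ≠ 0 := by
    intro h
    exact b.ne_zero 0 (Subtype.ext h)
  have hind : ∀ c : F, ((b 1 : U) : Fin 4 → F) - c • ((b 0 : U) : Fin 4 → F) ≠ 0 := by
    intro c h
    have h' : ∑ i, (![-c, 1] : Fin 2 → F) i • b i = 0 := by
      apply Subtype.ext
      rw [Fin.sum_univ_two]
      simp only [Matrix.cons_val_zero, Matrix.cons_val_one, Submodule.coe_add, Submodule.coe_smul,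
        Submodule.coe_zero, one_smul, neg_smul]
      rw [← h]; abel
    have := Fintype.linearIndependent_iff.1 b.linearIndependent _ h' 1
    simp at this
  obtain ⟨u2, x1, x2, g1, g2, g3, g4, g5, g6, g7, g8, g9⟩ :=
    hb_quad h2 (formB f₂ hb) (fun x y => hs2.symm x y)
      (fun v hv => (hs2.nondegenerate v hv).2) (b 0 : U) (b 1 : U)
      (hpol _ (b 0).2 _ (b 0).2) (hpol _ (b 0).2 _ (b 1).2) (hpol _ (b 1).2 _ (b 1).2) hu1 hind
  simp only [formB_apply] at g1 g2 g3 g4 g5 g6 g7 g8 g9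
  set u1 : Fin 4 → F := ((b 0 : U) : Fin 4 → F) with hu1def
  have g0 : f₂ u1 u1 = 0 := hpol _ (b 0).2 _ (b 0).2
  let w : Fin 2 × Fin 2 → (Fin 4 → F) := fun p => ![![u1, u2], ![-x2, x1]] p.1 p.2
  have hneg_r : ∀ a c, f₂ a (-c) = - f₂ a c := by
    intro a c
    have := hb.smul_right (-1) a c
    simpa using this
  have hneg_l : ∀ a c, f₂ (-a) c = - f₂ a c := by
    intro a c
    have := hb.smul_left (-1) a c
    simpa using this
  have hw : ∀ p p', f₂ (w p) (w p') = om F p.1 p'.1 * om F p.2 p'.2 := by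
    rintro ⟨i, j⟩ ⟨i', j'⟩
    fin_cases i <;> fin_cases j <;> fin_cases i' <;> fin_cases j' <;>
      simp [w, hneg_r, hneg_l, g0, g1, g2, g3, g4, g5, g6, g7, g8, g9, hs2.symm u2 u1, hs2.symm x1 u1,
        hs2.symm x2 u1, hs2.symm x1 u2, hs2.symm x2 u2, hs2.symm x2 x1]
  have hli : LinearIndependent F w := by
    rw [Fintype.linearIndependent_iff]
    intro c hc
    have hpair : ∀ p', ∑ p, c p * f₂ (w p) (w p') = 0 := by
      intro p'
      have e : formB f₂ hb (∑ p, c p • w p) (w p') = 0 := by rw [hc]; simp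
      rw [map_sum, LinearMap.sum_apply] at e
      simpa using e
    simp only [hw, Fintype.sum_prod_type, Fin.sum_univ_two] at hpair
    have q00 := hpair (1, 1)
    have q11 := hpair (0, 0)
    have q01 := hpair (1, 0)
    have q10 := hpair (0, 1)
    simp at q00 q11 q01 q10
    rintro ⟨i, j⟩
    fin_cases i <;> fin_cases j <;> assumption
  refine ⟨basisOfLinearIndependentOfCardEqFinrank hli (by simp), ?_⟩
  rw [coe_basisOfLinearIndependentOfCardEqFinrank]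
  exact hw

end Cfsg.Agent.Lib.Helper11.SpRow
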