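import Cfsg.Agent.Lib.Helper94.SpRow.Defs2
import Cfsg.Agent.Lib.Helper94.TensF3

set_option autoImplicit false

/-! # Piece [S1] of the Sp rows farm (helper94): the involutions of `Sp_4(3)` commuting with `J` -/

namespace Cfsg.Agent.Lib.Helper11.SpRow

open Cfsg Cfsg.Geo Matrix Cfsg.Agent.Lib.Helper13.Asch Cfsg.Agent.Lib.Helper94.SpRow
open scoped MatrixGroups

variable {F : Type*} [Field F]

theorem mulJ_inl {l : Type*} [Fintype l] [DecidableEq l] (t : Matrix (l ⊕ l) (l ⊕ l) F) (a : l ⊕ l)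
    (j : l) : (t * Matrix.J l F) a (Sum.inl j) = t a (Sum.inr j) := by
  simp [Matrix.J, Matrix.mul_apply, Fintype.sum_sum_type, Matrix.one_apply]

theorem mulJ_inr {l : Type*} [Fintype l] [DecidableEq l] (t : Matrix (l ⊕ l) (l ⊕ l) F) (a : l ⊕ l)
    (j : l) : (t * Matrix.J l F) a (Sum.inr j) = - t a (Sum.inl j) := by
  simp [Matrix.J, Matrix.mul_apply, Fintype.sum_sum_type, Matrix.one_apply]

theorem Jmul_inl {l : Type*} [Fintype l] [DecidableEq l] (t : Matrix (l ⊕ l) (l ⊕ l) F) (i : l)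
    (b : l ⊕ l) : (Matrix.J l F * t) (Sum.inl i) b = - t (Sum.inr i) b := by
  simp [Matrix.J, Matrix.mul_apply, Fintype.sum_sum_type, Matrix.one_apply]

theorem Jmul_inr {l : Type*} [Fintype l] [DecidableEq l] (t : Matrix (l ⊕ l) (l ⊕ l) F) (i : l)
    (b : l ⊕ l) : (Matrix.J l F * t) (Sum.inr i) b = t (Sum.inl i) b := by
  simp [Matrix.J, Matrix.mul_apply, Fintype.sum_sum_type, Matrix.one_apply]

/-- the shape of the matrices in question -/
def TT (p b r y : F) : Matrix (Fin 2 ⊕ Fin 2) (Fin 2 ⊕ Fin 2) F :=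
  Matrix.fromBlocks !![p, b; b, r] !![0, y; -y, 0] !![0, -y; y, 0] !![p, b; b, r]

theorem exists_TT (h20 : (2 : F) ≠ 0) (t : Matrix (Fin 2 ⊕ Fin 2) (Fin 2 ⊕ Fin 2) F)
    (hsp : tᵀ * Matrix.J (Fin 2) F * t = Matrix.J (Fin 2) F) (h2 : t * t = 1)
    (hJ : t * Matrix.J (Fin 2) F = Matrix.J (Fin 2) F * t) : ∃ p b r y, t = TT p b r y := by
  have h1 : tᵀ * Matrix.J (Fin 2) F = Matrix.J (Fin 2) F * t := by
    calc tᵀ * Matrix.J (Fin 2) F = tᵀ * Matrix.J (Fin 2) F * (t * t) := by rw [h2, mul_one]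
      _ = (tᵀ * Matrix.J (Fin 2) F * t) * t := by simp only [mul_assoc]
      _ = Matrix.J (Fin 2) F * t := by rw [hsp]
  have h3 : tᵀ * Matrix.J (Fin 2) F = t * Matrix.J (Fin 2) F := by rw [h1, hJ]
  have hJJ : Matrix.J (Fin 2) F * (-Matrix.J (Fin 2) F) = 1 := by
    rw [mul_neg, Matrix.J_squared, neg_neg]
  have hsym : tᵀ = t := by
    calc tᵀ = tᵀ * (Matrix.J (Fin 2) F * (-Matrix.J (Fin 2) F)) := by rw [hJJ, mul_one]
      _ = (tᵀ * Matrix.J (Fin 2) F) * (-Matrix.J (Fin 2) F) := by rw [mul_assoc]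
      _ = t * (Matrix.J (Fin 2) F * (-Matrix.J (Fin 2) F)) := by rw [h3, mul_assoc]
      _ = t := by rw [hJJ, mul_one]
  have hs : ∀ a b, t a b = t b a := fun a b => by
    conv_lhs => rw [← hsym]
    rfl
  have e1 : ∀ i j, t (Sum.inl i) (Sum.inr j) = - t (Sum.inr i) (Sum.inl j) := by
    intro i j
    have := congrFun (congrFun hJ (Sum.inl i)) (Sum.inl j)
    rwa [mulJ_inl, Jmul_inl] at this
  have e2 : ∀ i j, t (Sum.inr i) (Sum.inr j) = t (Sum.inl i) (Sum.inl j) := by
    intro i j
    have := congrFun (congrFun hJ (Sum.inr i)) (Sum.inl j)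
    rwa [mulJ_inl, Jmul_inr] at this
  have e3 : ∀ i, t (Sum.inr i) (Sum.inl i) = 0 := by
    intro i
    have h4 := e1 i i
    rw [hs] at h4
    have h5 : 2 * t (Sum.inr i) (Sum.inl i) = 0 := by linear_combination h4
    exact (mul_eq_zero.1 h5).resolve_left h20
  refine ⟨t (Sum.inl 0) (Sum.inl 0), t (Sum.inl 0) (Sum.inl 1), t (Sum.inl 1) (Sum.inl 1),
    t (Sum.inr 1) (Sum.inl 0), ?_⟩
  have e4 : t (Sum.inr 0) (Sum.inl 1) = - t (Sum.inr 1) (Sum.inl 0) := by
    rw [hs, e1]
  ext a b
  rcases a with a | a <;> rcases b with b | b <;> fin_cases a <;> fin_cases b <;>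
    simp [TT, e1, e2, e3, e4, hs (Sum.inl 1) (Sum.inl 0)]

theorem TT_eqs {p b r y : F} (h : TT p b r y * TT p b r y = 1) :
    p * p + b * b + y * y = 1 ∧ b * b + r * r + y * y = 1 ∧ b * (p + r) = 0 ∧ y * (p + r) = 0 := by
  have h00 := congrFun (congrFun h (Sum.inl 0)) (Sum.inl 0)
  have h11 := congrFun (congrFun h (Sum.inl 1)) (Sum.inl 1)
  have h01 := congrFun (congrFun h (Sum.inl 0)) (Sum.inl 1)
  have h20 := congrFun (congrFun h (Sum.inr 1)) (Sum.inl 0)
  simp [TT, Matrix.mul_apply, Fintype.sum_sum_type, Fin.sum_univ_two] at h00 h11 h01 h20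
  refine ⟨by linear_combination h00, by linear_combination h11, by linear_combination h01,
    by linear_combination h20⟩

theorem TT_a : TT (1 : F) 0 1 0 = 1 := by
  ext a b
  rcases a with a | a <;> rcases b with b | b <;> fin_cases a <;> fin_cases b <;> simp [TT]

theorem TT_b : TT (-1 : F) 0 (-1) 0 = -1 := by
  ext a b
  rcases a with a | a <;> rcases b with b | b <;> fin_cases a <;> fin_cases b <;> simp [TT]

theorem TT_c : TT (1 : F) 0 (-1) 0 = A0 := by
  ext a b
  rcases a with a | a <;> rcases b with b | b <;> fin_cases a <;> fin_cases b <;> simp [TT, A0]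

theorem TT_d : TT (-1 : F) 0 1 0 = -A0 := by
  ext a b
  rcases a with a | a <;> rcases b with b | b <;> fin_cases a <;> fin_cases b <;> simp [TT, A0]

theorem TT_e : TT (0 : F) 1 0 0 = B0 := by
  ext a b
  rcases a with a | a <;> rcases b with b | b <;> fin_cases a <;> fin_cases b <;> simp [TT, B0]

theorem TT_f : TT (0 : F) (-1) 0 0 = -B0 := by
  ext a b
  rcases a with a | a <;> rcases b with b | b <;> fin_cases a <;> fin_cases b <;> simp [TT, B0]

theorem TT_g : TT (0 : F) 0 0 (-1) = Matrix.J (Fin 2) F * A0 * B0 := by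
  rw [mul_assoc]
  ext a b
  rcases a with a | a <;> rcases b with b | b <;> fin_cases a <;> fin_cases b <;>
    simp [TT, A0, B0, Jmul_inl, Jmul_inr, Matrix.fromBlocks_multiply]

theorem TT_h : TT (0 : F) 0 0 1 = -(Matrix.J (Fin 2) F * A0 * B0) := by
  rw [mul_assoc]
  ext a b
  rcases a with a | a <;> rcases b with b | b <;> fin_cases a <;> fin_cases b <;>
    simp [TT, A0, B0, Jmul_inl, Jmul_inr, Matrix.fromBlocks_multiply]

theorem std_involutions [Fintype F] (hq : Fintype.card F = 3)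
    (t : Matrix (Fin 2 ⊕ Fin 2) (Fin 2 ⊕ Fin 2) F)
    (hsp : tᵀ * Matrix.J (Fin 2) F * t = Matrix.J (Fin 2) F) (h2 : t * t = 1)
    (hJ : t * Matrix.J (Fin 2) F = Matrix.J (Fin 2) F * t) :
    t = 1 ∨ t = -1 ∨ t = A0 ∨ t = -A0 ∨ t = B0 ∨ t = -B0 ∨
      t = Matrix.J (Fin 2) F * A0 * B0 ∨ t = -(Matrix.J (Fin 2) F * A0 * B0) := by
  have h30 := Cfsg.Agent.Lib.Helper94.Tens.card3_three hq
  have hc := Cfsg.Agent.Lib.Helper94.Tens.card3_cases hq
  have h20 : (2 : F) ≠ 0 := by
    intro h
    exact one_ne_zero (show (1 : F) = 0 by linear_combination h30 - h)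
  obtain ⟨p, b, r, y, rfl⟩ := exists_TT h20 t hsp h2 hJ
  obtain ⟨q1, q2, q3, q4⟩ := TT_eqs h2
  have hss : ∀ x w : F, x * x + w * w = 0 → x = 0 ∧ w = 0 := by
    intro x w h
    rcases hc x with rfl | rfl | rfl <;> rcases hc w with rfl | rfl | rfl
    · exact ⟨rfl, rfl⟩
    · exfalso; apply one_ne_zero (α := F); linear_combination h
    · exfalso; apply one_ne_zero (α := F); linear_combination h
    · exfalso; apply one_ne_zero (α := F); linear_combination h
    · exfalso; apply h20; linear_combination h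
    · exfalso; apply h20; linear_combination h
    · exfalso; apply one_ne_zero (α := F); linear_combination h
    · exfalso; apply h20; linear_combination h
    · exfalso; apply h20; linear_combination h
  have hy1 : y * y = 1 → p = 0 ∧ b = 0 ∧ r = 0 := by
    intro hy
    have h5 := hss p b (by linear_combination q1 - hy)
    have h6 := hss b r (by linear_combination q2 - hy)
    exact ⟨h5.1, h5.2, h6.2⟩
  rcases hc y with rfl | rfl | rfl
  · have hb1 : b * b = 1 → p = 0 ∧ r = 0 := by
      intro hb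
      have h5 := hss p 0 (by linear_combination q1 - hb)
      have h6 := hss r 0 (by linear_combination q2 - hb)
      exact ⟨h5.1, h6.1⟩
    rcases hc b with rfl | rfl | rfl
    · rcases hc p with rfl | rfl | rfl
      · exfalso; apply one_ne_zero (α := F); linear_combination -q1
      · rcases hc r with rfl | rfl | rfl
        · exfalso; apply one_ne_zero (α := F); linear_combination -q2
        · left; exact TT_a
        · right; right; left; exact TT_c
      · rcases hc r with rfl | rfl | rfl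
        · exfalso; apply one_ne_zero (α := F); linear_combination -q2
        · right; right; right; left; exact TT_d
        · right; left; exact TT_b
    · obtain ⟨rfl, rfl⟩ := hb1 (by ring)
      right; right; right; right; left; exact TT_e
    · obtain ⟨rfl, rfl⟩ := hb1 (by ring)
      right; right; right; right; right; left; exact TT_f
  · obtain ⟨rfl, rfl, rfl⟩ := hy1 (by ring)
    right; right; right; right; right; right; right; exact TT_h
  · obtain ⟨rfl, rfl, rfl⟩ := hy1 (by ring)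
    right; right; right; right; right; right; left; exact TT_g

end Cfsg.Agent.Lib.Helper11.SpRow
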