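import Cfsg.Agent.Lib.Helper94.SpRow.Defs3
import Cfsg.Agent.Lib.Helper12.SpRow.W3

set_option autoImplicit false

/-! # Piece [TS] of the Sp rows farm (helper94): `Sp_2 ⊗ O_4^+` maps pure tensors to pure tensors -/

namespace Cfsg.Agent.Lib.Helper11.SpRow

open Cfsg Cfsg.Geo Matrix Module Cfsg.Agent.Lib.Helper94.SpRow Cfsg.Agent.Lib.Helper94
open Cfsg.Agent.Lib.Helper94.Tens
open scoped MatrixGroups

variable {F : Type*} [Field F]

theorem tensor_maps_pure (h2 : (2 : F) ≠ 0) (e : (Fin 4 ⊕ Fin 4) ≃ Fin 2 × Fin 4)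
    (P : GL (Fin 4 ⊕ Fin 4) F)
    (f₁ : (Fin 2 → F) → (Fin 2 → F) → F) (f₂ : (Fin 4 → F) → (Fin 4 → F) → F)
    (h1 : IsSymplecticForm f₁) (hs2 : IsSymmetricForm f₂)
    (hs : IsTensorFormStructure id (sympForm 4 F) f₁ f₂ e P) (D : Fr e P f₂)
    (g : GL (Fin 4 ⊕ Fin 4) F) (hg : g ∈ tensorProductSubgroup 2 4 e P ⊓ spGL 4 F)
    (x : I3 → F) (hx : x ∈ Pure3 F) :
    ∃ x' ∈ Pure3 F, (g : Matrix _ _ F) *ᵥ D.Φ x = D.Φ x' := by
  obtain ⟨a, b, c, habc⟩ := hx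
  obtain ⟨k, hk, hform⟩ := form_pt (sympForm 4 F) f₁ f₂ h1.bilinear hs2.bilinear e P hs
  obtain ⟨A, B, hAB⟩ := exists_of_mem e P g hg.1
  have hsp := mem_spGL.1 hg.2
  have hx' : x = fun p : I3 => a p.1 * (fun q : Fin 2 × Fin 2 => b q.1 * c q.2) p.2 := by
    funext p; exact habc p
  have hiso : ∀ y y' z z', f₁ ((A : Matrix _ _ F) *ᵥ y) ((A : Matrix _ _ F) *ᵥ y') *
      f₂ ((B : Matrix _ _ F) *ᵥ z) ((B : Matrix _ _ F) *ᵥ z') = f₁ y y' * f₂ z z' := by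
    intro y y' z z'
    have e1 := hsp (pt e P y z) (pt e P y' z')
    rw [hAB, hAB, hform, hform] at e1
    exact mul_left_cancel₀ hk e1
  have hne1 : ∃ y y', f₁ y y' ≠ 0 := by
    have hne : (Pi.single 0 1 : Fin 2 → F) ≠ 0 := by
      intro h
      have := congrFun h 0
      simp at this
    obtain ⟨y', hy'⟩ := (h1.nondegenerate _ hne).2
    exact ⟨_, y', hy'⟩
  have hne2 : ∃ z z', f₂ z z' ≠ 0 := by
    have hne : (Pi.single 0 1 : Fin 4 → F) ≠ 0 := by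
      intro h
      have := congrFun h 0
      simp at this
    obtain ⟨y', hy'⟩ := (hs2.nondegenerate _ hne).2
    exact ⟨_, y', hy'⟩
  obtain ⟨μ, -, hμ⟩ := simil_of_isom f₁ f₂ (fun y => (A : Matrix _ _ F) *ᵥ y)
    (fun z => (B : Matrix _ _ F) *ᵥ z) hiso hne1 hne2
  set y : Fin 2 × Fin 2 → F := fun q => b q.1 * c q.2 with hy
  have hq0 : f₂ (D.W y) (D.W y) = 0 := by
    rw [D.quad]
    simp only [hy]
    ring
  set y' := D.W.symm ((B : Matrix _ _ F) *ᵥ D.W y) with hy'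
  have hWy' : D.W y' = (B : Matrix _ _ F) *ᵥ D.W y := by rw [hy', LinearEquiv.apply_symm_apply]
  have hdet : y' (0, 0) * y' (1, 1) - y' (0, 1) * y' (1, 0) = 0 := by
    have e1 := D.quad y'
    rw [hWy', hμ, hq0, mul_zero] at e1
    exact (mul_eq_zero.1 e1.symm).resolve_left h2
  obtain ⟨b', c', hbc⟩ := Cfsg.Agent.Lib.Helper12.SpRow.pure_of_det_zero y' hdet
  refine ⟨fun p => ((A : Matrix _ _ F) *ᵥ a) p.1 * y' p.2,
    ⟨(A : Matrix _ _ F) *ᵥ a, b', c', fun p => ?_⟩, ?_⟩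
  · show ((A : Matrix _ _ F) *ᵥ a) p.1 * y' p.2 = _
    rw [hbc]
  · rw [D.pure, hWy', hx', D.pure, hAB]

end Cfsg.Agent.Lib.Helper11.SpRow
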