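import Cfsg.Agent.Lib.Helper11.SpRow.U1a
import Cfsg.Agent.Lib.Helper11.SpRow.S1

set_option autoImplicit false

/-! # Piece [U1] of the Sp rows farm (helper94): normal form of the unitary field in `Sp_4(3)` -/

namespace Cfsg.Agent.Lib.Helper11.SpRow

open Cfsg Cfsg.Geo Matrix Module Cfsg.Agent.Lib.Helper13.Asch Cfsg.Agent.Lib.Helper94.SpRow
open scoped MatrixGroups

variable {F : Type*} [Field F] {m : ℕ}

theorem u1_ii (i : Matrix (Fin m ⊕ Fin m) (Fin m ⊕ Fin m) F) (hi : i * i = -1)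
    (v : Fin m ⊕ Fin m → F) : i *ᵥ (i *ᵥ v) = -v := by
  rw [Matrix.mulVec_mulVec, hi, Matrix.neg_mulVec, Matrix.one_mulVec]

theorem u1_adj [Fintype F] (hq : Fintype.card F = 3)
    (K : Subalgebra F (Matrix (Fin m ⊕ Fin m) (Fin m ⊕ Fin m) F))
    (hadj : IsAdjointClosedFor (sympForm m F) K) (hns : ¬ IsSelfAdjointFor (sympForm m F) K)
    (i : Matrix (Fin m ⊕ Fin m) (Fin m ⊕ Fin m) F) (hiK : i ∈ K) (hi : i * i = -1)
    (hKi : ∀ k, k ∈ K ↔ ∃ x y : F, k = x • 1 + y • i)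
    (hind : ∀ x y : F, x • (1 : Matrix (Fin m ⊕ Fin m) (Fin m ⊕ Fin m) F) + y • i = 0 → x = 0 ∧ y = 0) :
    ∀ u v, sympForm m F (i *ᵥ u) v = - sympForm m F u (i *ᵥ v) := by
  have h30 := Cfsg.Agent.Lib.Helper94.Tens.card3_three hq
  have hc := Cfsg.Agent.Lib.Helper94.Tens.card3_cases hq
  have h20 : (2 : F) ≠ 0 := by
    intro h
    exact one_ne_zero (show (1 : F) = 0 by linear_combination h30 - h)
  obtain ⟨i', hi'K, hi'⟩ := hadj i hiK
  obtain ⟨x, y, rfl⟩ := (hKi i').1 hi'K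
  have hlin : ∀ (a b : F) (v : Fin m ⊕ Fin m → F),
      (a • (1 : Matrix (Fin m ⊕ Fin m) (Fin m ⊕ Fin m) F) + b • i) *ᵥ v = a • v + b • (i *ᵥ v) := by
    intro a b v
    rw [Matrix.add_mulVec, Matrix.smul_mulVec, Matrix.smul_mulVec, Matrix.one_mulVec]
  have h1 : ∀ u v, sympForm m F (i *ᵥ u) v = x * sympForm m F u v + y * sympForm m F u (i *ᵥ v) := by
    intro u v
    rw [hi', hlin, sf_add_right, sf_smul_right, sf_smul_right]
  have h2 : ∀ u v, (x * x - y * y + 1) * sympForm m F u v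
      + (2 * x * y) * sympForm m F u (i *ᵥ v) = 0 := by
    intro u v
    have e1 := h1 (i *ᵥ u) v
    rw [u1_ii i hi, sf_neg_left, h1 u v, h1 u (i *ᵥ v), u1_ii i hi, sf_neg_right] at e1
    linear_combination -e1
  have h3 : (x * x - y * y + 1) • (1 : Matrix (Fin m ⊕ Fin m) (Fin m ⊕ Fin m) F) + (2 * x * y) • i = 0 := by
    rw [Matrix.ext_iff_mulVec]
    intro v
    rw [Matrix.zero_mulVec]
    by_contra hne
    obtain ⟨u, hu⟩ := sf_exists_ne hne
    apply hu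
    rw [hlin, sf_add_right, sf_smul_right, sf_smul_right]
    exact h2 u v
  obtain ⟨h4, h5⟩ := hind _ _ h3
  have hx : x = 0 := by
    rcases mul_eq_zero.1 h5 with h | h
    · exact (mul_eq_zero.1 h).resolve_left h20
    · exfalso
      subst h
      rcases hc x with rfl | rfl | rfl
      · apply one_ne_zero (α := F); linear_combination h4
      · apply h20; linear_combination h4
      · apply h20; linear_combination h4
  subst hx
  rcases hc y with rfl | rfl | rfl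
  · exfalso; apply one_ne_zero (α := F); linear_combination h4
  · exfalso
    apply hns
    intro k hk u v
    obtain ⟨a, b, rfl⟩ := (hKi k).1 hk
    rw [hlin, hlin, sf_add_left, sf_smul_left, sf_smul_left, sf_add_right, sf_smul_right,
      sf_smul_right, h1 u v]
    ring
  · intro u v
    rw [h1 u v]; ring

theorem u1_norm_one [Fintype F] (hq : Fintype.card F = 3)
    (i : Matrix (Fin m ⊕ Fin m) (Fin m ⊕ Fin m) F) (hi : i * i = -1)
    (hskew : ∀ u v, sympForm m F (i *ᵥ u) v = - sympForm m F u (i *ᵥ v))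
    (U : Submodule F (Fin m ⊕ Fin m → F)) (hU : ∀ u ∈ U, i *ᵥ u ∈ U)
    (u w : Fin m ⊕ Fin m → F) (hu : u ∈ U) (hw : w ∈ U) (h : sympForm m F (i *ᵥ u) w ≠ 0) :
    ∃ v ∈ U, sympForm m F (i *ᵥ v) v = 1 := by
  have h30 := Cfsg.Agent.Lib.Helper94.Tens.card3_three hq
  have hc := Cfsg.Agent.Lib.Helper94.Tens.card3_cases hq
  have h20 : (2 : F) ≠ 0 := by
    intro h
    exact one_ne_zero (show (1 : F) = 0 by linear_combination h30 - h)
  have hsymm : ∀ a b, sympForm m F (i *ᵥ a) b = sympForm m F (i *ᵥ b) a := by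
    intro a b
    rw [hskew a b, sf_swap (i *ᵥ b) a]
  obtain ⟨v, hv, hvv⟩ : ∃ v ∈ U, sympForm m F (i *ᵥ v) v ≠ 0 := by
    by_contra hcon
    push Not at hcon
    apply h
    have e := hcon (u + w) (U.add_mem hu hw)
    rw [Matrix.mulVec_add, sf_add_left, sf_add_right, sf_add_right, hcon u hu, hcon w hw,
      hsymm w u] at e
    have e2 : 2 * sympForm m F (i *ᵥ u) w = 0 := by linear_combination e
    exact (mul_eq_zero.1 e2).resolve_left h20
  rcases hc (sympForm m F (i *ᵥ v) v) with h0 | h1 | h1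
  · exact absurd h0 hvv
  · exact ⟨v, hv, h1⟩
  · refine ⟨v + i *ᵥ v, U.add_mem hv (hU v hv), ?_⟩
    rw [Matrix.mulVec_add, u1_ii i hi, sf_add_left, sf_add_right, sf_add_right, sf_self,
      sf_neg_left, sf_neg_left, sf_self, sf_swap v (i *ᵥ v), h1]
    linear_combination -h30

theorem gram_entry (P : Matrix (Fin m ⊕ Fin m) (Fin m ⊕ Fin m) F) (a b : Fin m ⊕ Fin m) :
    (Pᵀ * Matrix.J (Fin m) F * P) a b = sympForm m F (fun r => P r a) (fun r => P r b) := by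
  rw [Matrix.mul_assoc, Matrix.mul_apply]
  unfold sympForm dotProduct
  apply Finset.sum_congr rfl
  intro k _
  rw [Matrix.transpose_apply, Matrix.mul_apply]
  rfl

/-- existence of the second pair -/
theorem u1_second [Fintype F] (hq : Fintype.card F = 3)
    (i : Matrix (Fin 2 ⊕ Fin 2) (Fin 2 ⊕ Fin 2) F) (hi : i * i = -1)
    (hskew : ∀ u v, sympForm 2 F (i *ᵥ u) v = - sympForm 2 F u (i *ᵥ v))
    (v1 : Fin 2 ⊕ Fin 2 → F) (hv1 : sympForm 2 F (i *ᵥ v1) v1 = 1) :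
    ∃ v2, sympForm 2 F (i *ᵥ v2) v2 = 1 ∧ sympForm 2 F v2 v1 = 0 ∧ sympForm 2 F v2 (i *ᵥ v1) = 0 ∧
      sympForm 2 F (i *ᵥ v2) v1 = 0 ∧ sympForm 2 F (i *ᵥ v2) (i *ᵥ v1) = 0 := by
  let U : Submodule F (Fin 2 ⊕ Fin 2 → F) :=
    { carrier := {u | sympForm 2 F u v1 = 0 ∧ sympForm 2 F u (i *ᵥ v1) = 0}
      add_mem' := by
        rintro a b ⟨ha1, ha2⟩ ⟨hb1, hb2⟩
        exact ⟨by rw [sf_add_left, ha1, hb1, add_zero], by rw [sf_add_left, ha2, hb2, add_zero]⟩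
      zero_mem' := ⟨sf_zero_left _, sf_zero_left _⟩
      smul_mem' := by
        rintro c a ⟨ha1, ha2⟩
        exact ⟨by rw [sf_smul_left, ha1, mul_zero], by rw [sf_smul_left, ha2, mul_zero]⟩ }
  have hUmem : ∀ u, u ∈ U ↔ sympForm 2 F u v1 = 0 ∧ sympForm 2 F u (i *ᵥ v1) = 0 := fun u => Iff.rfl
  have hUi : ∀ u ∈ U, i *ᵥ u ∈ U := by
    intro u hu
    obtain ⟨h1, h2⟩ := (hUmem u).1 hu
    rw [hUmem]
    exact ⟨by rw [hskew, h2, neg_zero], by rw [hskew, u1_ii i hi, sf_neg_right, h1]; simp⟩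
  have hv1' : sympForm 2 F v1 (i *ᵥ v1) = -1 := by rw [sf_swap, hv1]
  have hproj : ∀ x, x - (-(sympForm 2 F x (i *ᵥ v1))) • v1 - (sympForm 2 F x v1) • (i *ᵥ v1) ∈ U := by
    intro x
    rw [hUmem]
    constructor
    · rw [sf_sub_left, sf_sub_left, sf_smul_left, sf_smul_left, sf_self, hv1]; ring
    · rw [sf_sub_left, sf_sub_left, sf_smul_left, sf_smul_left, sf_self, hv1']; ring
  -- a vector outside the span
  obtain ⟨x0, hx0⟩ : ∃ x0, x0 ∉ Submodule.span F {v1, i *ᵥ v1} := by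
    by_contra hcon
    push Not at hcon
    have htop : Submodule.span F {v1, i *ᵥ v1} = ⊤ := by
      rw [eq_top_iff]; intro x _; exact hcon x
    classical
    have h1 := finrank_span_finset_le_card (R := F) ({v1, i *ᵥ v1} : Finset (Fin 2 ⊕ Fin 2 → F))
    have h2 : (({v1, i *ᵥ v1} : Finset (Fin 2 ⊕ Fin 2 → F)) : Set (Fin 2 ⊕ Fin 2 → F)) = {v1, i *ᵥ v1} := by
      simp
    rw [Set.finrank, h2, htop, finrank_top, Module.finrank_fintype_fun_eq_card] at h1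
    have h3 : ({v1, i *ᵥ v1} : Finset (Fin 2 ⊕ Fin 2 → F)).card ≤ 2 := Finset.card_le_two
    simp at h1
    omega
  set u := x0 - (-(sympForm 2 F x0 (i *ᵥ v1))) • v1 - (sympForm 2 F x0 v1) • (i *ᵥ v1) with hu
  have huU : u ∈ U := hproj x0
  have hune : u ≠ 0 := by
    intro h0
    apply hx0
    rw [Submodule.mem_span_pair]
    refine ⟨-(sympForm 2 F x0 (i *ᵥ v1)), sympForm 2 F x0 v1, ?_⟩
    rw [hu, sub_sub, sub_eq_zero] at h0
    exact h0.symm
  have hiune : i *ᵥ u ≠ 0 := by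
    intro h0
    apply hune
    have := u1_ii i hi u
    rw [h0, Matrix.mulVec_zero] at this
    exact neg_eq_zero.1 this.symm
  obtain ⟨w0, hw0⟩ := sf_exists_ne hiune
  have hiuU := (hUmem _).1 (hUi u huU)
  have hw : sympForm 2 F (i *ᵥ u)
      (w0 - (-(sympForm 2 F w0 (i *ᵥ v1))) • v1 - (sympForm 2 F w0 v1) • (i *ᵥ v1)) ≠ 0 := by
    rw [sf_sub_right, sf_sub_right, sf_smul_right, sf_smul_right, hiuU.1, hiuU.2, mul_zero, mul_zero,
      sub_zero, sub_zero, sf_swap]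
    exact neg_ne_zero.2 hw0
  obtain ⟨v2, hv2U, hv2⟩ := u1_norm_one hq i hi hskew U hUi u _ huU (hproj w0) hw
  have h1 := (hUmem _).1 hv2U
  have h2 := (hUmem _).1 (hUi v2 hv2U)
  exact ⟨v2, hv2, h1.1, h1.2, h2.1, h2.2⟩

theorem unitary_normal_form [Fintype F] (hq : Fintype.card F = 3)
    (K : Subalgebra F (Matrix (Fin 2 ⊕ Fin 2) (Fin 2 ⊕ Fin 2) F)) (hK : IsFieldSubalgebra 2 K)
    (hadj : IsAdjointClosedFor (sympForm 2 F) K) (hns : ¬ IsSelfAdjointFor (sympForm 2 F) K) :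
    ∃ P ∈ spGL 2 F, ∀ k : Matrix (Fin 2 ⊕ Fin 2) (Fin 2 ⊕ Fin 2) F, k ∈ K ↔
      ∃ x y : F, k = (P : Matrix (Fin 2 ⊕ Fin 2) (Fin 2 ⊕ Fin 2) F) *
        (x • 1 + y • Matrix.J (Fin 2) F) *
        ((P⁻¹ : GL (Fin 2 ⊕ Fin 2) F) : Matrix (Fin 2 ⊕ Fin 2) (Fin 2 ⊕ Fin 2) F) := by
  obtain ⟨i, hiK, hi, hKi, hind⟩ := u1_gen hq K hK
  have hskew := u1_adj hq K hadj hns i hiK hi hKi hind
  -- first pair
  obtain ⟨v1, -, hv1⟩ : ∃ v ∈ (⊤ : Submodule F (Fin 2 ⊕ Fin 2 → F)), sympForm 2 F (i *ᵥ v) v = 1 := by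
    have hune : (Pi.single (Sum.inl 0) 1 : Fin 2 ⊕ Fin 2 → F) ≠ 0 := by
      intro h
      have := congrFun h (Sum.inl 0)
      simp at this
    have hiune : i *ᵥ (Pi.single (Sum.inl 0) 1 : Fin 2 ⊕ Fin 2 → F) ≠ 0 := by
      intro h0
      apply hune
      have := u1_ii i hi (Pi.single (Sum.inl 0) 1 : Fin 2 ⊕ Fin 2 → F)
      rw [h0, Matrix.mulVec_zero] at this
      exact neg_eq_zero.1 this.symm
    obtain ⟨w0, hw0⟩ := sf_exists_ne hiune
    exact u1_norm_one hq i hi hskew ⊤ (fun _ _ => trivial) _ w0 trivial trivial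
      (by rw [sf_swap]; exact neg_ne_zero.2 hw0)
  obtain ⟨v2, hv2, a1, a2, a3, a4⟩ := u1_second hq i hi hskew v1 hv1
  let col : Fin 2 ⊕ Fin 2 → (Fin 2 ⊕ Fin 2 → F) := Sum.elim ![v1, v2] ![i *ᵥ v1, i *ᵥ v2]
  let P : Matrix (Fin 2 ⊕ Fin 2) (Fin 2 ⊕ Fin 2) F := Matrix.of fun r c => col c r
  have hcol : ∀ c, (fun r => P r c) = col c := fun c => rfl
  have hgram : Pᵀ * Matrix.J (Fin 2) F * P = Matrix.J (Fin 2) F := by
    have b1 : sympForm 2 F v1 v2 = 0 := by rw [sf_swap, a1, neg_zero]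
    have b2 : sympForm 2 F (i *ᵥ v1) v2 = 0 := by rw [sf_swap, a2, neg_zero]
    have b3 : sympForm 2 F v1 (i *ᵥ v2) = 0 := by rw [sf_swap, a3, neg_zero]
    have b4 : sympForm 2 F (i *ᵥ v1) (i *ᵥ v2) = 0 := by rw [sf_swap, a4, neg_zero]
    have c1 : sympForm 2 F v1 (i *ᵥ v1) = -1 := by rw [sf_swap, hv1]
    have c2 : sympForm 2 F v2 (i *ᵥ v2) = -1 := by rw [sf_swap, hv2]
    ext a b
    rw [gram_entry, hcol, hcol]
    rcases a with a | a <;> rcases b with b | b <;> fin_cases a <;> fin_cases b <;>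
      simp [col, Matrix.J, sf_self, a1, a2, a3, a4, b1, b2, b3, b4, c1, c2, hv1, hv2]
  have hiP : i * P = P * Matrix.J (Fin 2) F := by
    have hmul : ∀ r c, (i * P) r c = (i *ᵥ col c) r := by
      intro r c
      rw [Matrix.mul_apply]
      rfl
    ext r c
    rcases c with c | c
    · rw [mulJ_inl, hmul]
      fin_cases c <;> rfl
    · rw [mulJ_inr, hmul]
      fin_cases c
      · show (i *ᵥ (i *ᵥ v1)) r = - v1 r
        rw [u1_ii i hi]; rfl
      · show (i *ᵥ (i *ᵥ v2)) r = - v2 r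
        rw [u1_ii i hi]; rfl
  have hQP : (-(Matrix.J (Fin 2) F) * Pᵀ * Matrix.J (Fin 2) F) * P = 1 := by
    have : (-(Matrix.J (Fin 2) F) * Pᵀ * Matrix.J (Fin 2) F) * P
        = -(Matrix.J (Fin 2) F) * (Pᵀ * Matrix.J (Fin 2) F * P) := by simp only [mul_assoc]
    rw [this, hgram, neg_mul, Matrix.J_squared, neg_neg]
  have hPQ : P * (-(Matrix.J (Fin 2) F) * Pᵀ * Matrix.J (Fin 2) F) = 1 := mul_eq_one_comm.1 hQP
  refine ⟨⟨P, _, hPQ, hQP⟩, mem_spGL_iff_gram.2 hgram, fun k => ?_⟩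
  rw [hKi]
  have key : ∀ x y : F, P * (x • 1 + y • Matrix.J (Fin 2) F) *
      (-(Matrix.J (Fin 2) F) * Pᵀ * Matrix.J (Fin 2) F) = x • 1 + y • i := by
    intro x y
    rw [mul_add, add_mul, mul_smul_comm, mul_smul_comm, smul_mul_assoc, smul_mul_assoc, mul_one, hPQ,
      ← hiP, mul_assoc, hPQ, mul_one]
  constructor
  · rintro ⟨x, y, rfl⟩
    exact ⟨x, y, (key x y).symm⟩
  · rintro ⟨x, y, rfl⟩
    exact ⟨x, y, key x y⟩

end Cfsg.Agent.Lib.Helper11.SpRow
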