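import Cfsg.Agent.Lib.Helper94.SpRow.Defs2
import Cfsg.Agent.Lib.Helper94.TensF3

set_option autoImplicit false

/-! # Piece [U1] of the Sp rows farm (helper94), part a: a generator `i` with `i * i = -1` -/

namespace Cfsg.Agent.Lib.Helper11.SpRow

open Cfsg Cfsg.Geo Matrix Module Cfsg.Agent.Lib.Helper13.Asch Cfsg.Agent.Lib.Helper94.SpRow
open scoped MatrixGroups

variable {F : Type*} [Field F]

theorem u1_gen [Fintype F] (hq : Fintype.card F = 3) {ι : Type} [Fintype ι] [DecidableEq ι]
    [Nonempty ι] (K : Subalgebra F (Matrix ι ι F)) (hK : IsFieldSubalgebra 2 K) :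
    ∃ i ∈ K, i * i = -1 ∧ (∀ k, k ∈ K ↔ ∃ x y : F, k = x • 1 + y • i) ∧
      (∀ x y : F, x • (1 : Matrix ι ι F) + y • i = 0 → x = 0 ∧ y = 0) := by
  have h30 := Cfsg.Agent.Lib.Helper94.Tens.card3_three hq
  have hc := Cfsg.Agent.Lib.Helper94.Tens.card3_cases hq
  have h1ne : (1 : Matrix ι ι F) ≠ 0 := one_ne_zero
  -- a non-scalar element
  obtain ⟨k0, hk0, hns⟩ : ∃ k0 ∈ K, ∀ c : F, k0 ≠ c • 1 := by
    by_contra hcon
    push Not at hcon
    have hle : Subalgebra.toSubmodule K ≤ Submodule.span F {(1 : Matrix ι ι F)} := by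
      intro k hk
      obtain ⟨c, hc'⟩ := hcon k hk
      rw [Submodule.mem_span_singleton]
      exact ⟨c, hc'.symm⟩
    have h1 := Submodule.finrank_mono hle
    rw [finrank_span_singleton h1ne, Subalgebra.finrank_toSubmodule, hK.finrank_eq] at h1
    omega
  have indep : ∀ k : Matrix ι ι F, (∀ c : F, k ≠ c • 1) → ∀ s t : F, s • (1 : Matrix ι ι F) + t • k = 0 →
      s = 0 ∧ t = 0 := by
    intro k hk s t h
    have ht : t = 0 := by
      by_contra ht
      apply hk (-(t⁻¹ * s))
      have h2 : t • k = -(s • (1 : Matrix ι ι F)) := by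
        rw [eq_neg_iff_add_eq_zero, add_comm]; exact h
      calc k = t⁻¹ • (t • k) := by rw [smul_smul, inv_mul_cancel₀ ht, one_smul]
        _ = -(t⁻¹ * s) • 1 := by rw [h2, smul_neg, smul_smul, neg_smul]
    subst ht
    rw [zero_smul, add_zero] at h
    exact ⟨(smul_eq_zero.1 h).resolve_right h1ne, rfl⟩
  have hspan : Submodule.span F {(1 : Matrix ι ι F), k0} = Subalgebra.toSubmodule K := by
    apply Submodule.eq_of_le_of_finrank_eq
    · rw [Submodule.span_le]
      rintro x (rfl | rfl)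
      · exact K.one_mem
      · exact hk0
    · have hli : LinearIndependent F ![(1 : Matrix ι ι F), k0] :=
        LinearIndependent.pair_iff.2 (indep k0 hns)
      have h2 := finrank_span_eq_card hli
      have h3 : Set.range ![(1 : Matrix ι ι F), k0] = {1, k0} := by
        simp [Matrix.range_cons, Set.pair_comm]
      rw [h3] at h2
      rw [h2, Subalgebra.finrank_toSubmodule, hK.finrank_eq]
      rfl
  have hmem : ∀ k, k ∈ K ↔ ∃ a b : F, a • (1 : Matrix ι ι F) + b • k0 = k := by
    intro k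
    rw [← Submodule.mem_span_pair, hspan]
    rfl
  obtain ⟨α, β, hαβ⟩ := (hmem (k0 * k0)).1 (K.mul_mem hk0 hk0)
  have hk1K : k0 + β • 1 ∈ K := K.add_mem hk0 (K.smul_mem K.one_mem β)
  have hk1ns : ∀ c : F, k0 + β • 1 ≠ c • 1 := by
    intro c h
    apply hns (c - β)
    rw [sub_smul, ← h]; abel
  have hsq : (k0 + β • 1) * (k0 + β • 1) = (α + β * β) • (1 : Matrix ι ι F) := by
    have e : (k0 + β • 1) * (k0 + β • 1) = k0 * k0 + (2 * β) • k0 + (β * β) • (1 : Matrix ι ι F) := by
      simp only [add_mul, mul_add, smul_mul_assoc, mul_smul_comm, one_mul, mul_one]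
      module
    rw [e, ← hαβ]
    have e2 : α • (1 : Matrix ι ι F) + β • k0 + (2 * β) • k0 + (β * β) • (1 : Matrix ι ι F)
        = (α + β * β) • (1 : Matrix ι ι F) + (3 * β) • k0 := by module
    rw [e2, h30, zero_mul, zero_smul, add_zero]
  set k1 := k0 + β • (1 : Matrix ι ι F) with hk1
  have hk1ne : k1 ≠ 0 := by
    intro h
    apply hk1ns 0
    rw [h, zero_smul]
  have hδ : α + β * β = -1 := by
    rcases hc (α + β * β) with h | h | h
    · exfalso
      rw [h, zero_smul] at hsq
      obtain ⟨y, -, hy⟩ := hK.inv k1 hk1K hk1ne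
      apply hk1ne
      calc k1 = k1 * (k1 * y) := by rw [hy, mul_one]
        _ = 0 := by rw [← mul_assoc, hsq, zero_mul]
    · exfalso
      rw [h, one_smul] at hsq
      have hm : k1 - 1 ≠ 0 := by
        intro h'
        apply hk1ns 1
        rw [one_smul]; exact sub_eq_zero.1 h'
      have hmK : k1 - 1 ∈ K := K.sub_mem hk1K K.one_mem
      obtain ⟨y, hyK, hy⟩ := hK.inv _ hmK hm
      have hy' : y * (k1 - 1) = 1 := by rw [← hK.comm _ hmK _ hyK]; exact hy
      have hz : (k1 - 1) * (k1 + 1) = 0 := by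
        have : (k1 - 1) * (k1 + 1) = k1 * k1 - 1 := by noncomm_ring
        rw [this, hsq, sub_self]
      apply hk1ns (-1)
      have : k1 + 1 = 0 := by
        calc k1 + 1 = (y * (k1 - 1)) * (k1 + 1) := by rw [hy', one_mul]
          _ = 0 := by rw [mul_assoc, hz, mul_zero]
      rw [neg_smul, one_smul]
      exact eq_neg_of_add_eq_zero_left this
    · exact h
  refine ⟨k1, hk1K, by rw [hsq, hδ, neg_smul, one_smul], fun k => ?_, indep k1 hk1ns⟩
  constructor
  · intro hk
    obtain ⟨a, b, rfl⟩ := (hmem k).1 hk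
    refine ⟨a - b * β, b, ?_⟩
    rw [hk1]
    module
  · rintro ⟨x, y, rfl⟩
    exact K.add_mem (K.smul_mem K.one_mem x) (K.smul_mem hk1K y)

end Cfsg.Agent.Lib.Helper11.SpRow
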